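import Mathlib.Algebra.CharP.Lemmas
import Mathlib.GroupTheory.Index
import Mathlib.GroupTheory.QuotientGroup.Basic
import Mathlib.Algebra.Ring.Hom.Defs
import Mathlib.Algebra.Ring.Basic
import Mathlib.Algebra.Group.Hom.End
import Mathlib.Algebra.Group.TypeTags.Hom
import Mathlib.Algebra.Group.TypeTags.Finite
import Mathlib.Algebra.Group.Subgroup.Finite

/-! Bounds for abelian sections in terms of the number of fixed points of an endomorphism of
prime order. -/

set_option autoImplicit false

namespace Cfsg.Agent.H19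

theorem card_ker_pow_le {V : Type*} [AddCommGroup V] [Finite V] (T : AddMonoid.End V) (k : ℕ) :
    Nat.card (AddMonoidHom.ker (T ^ k : AddMonoid.End V)) ≤ Nat.card (AddMonoidHom.ker T) ^ k := by
  induction k with
  | zero =>
    rw [pow_zero, pow_zero]
    have : AddMonoidHom.ker (1 : AddMonoid.End V) = ⊥ := by
      rw [eq_bot_iff]; intro x hx; exact hx
    rw [this, AddSubgroup.card_bot]
  | succ k ih =>
    set A := AddMonoidHom.ker (T ^ (k + 1) : AddMonoid.End V)
    have h1 : A.map (T : V →+ V) ≤ AddMonoidHom.ker (T ^ k : AddMonoid.End V) := by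
      rintro _ ⟨x, hx, rfl⟩
      have : (T ^ (k + 1) : AddMonoid.End V) x = 0 := hx
      rw [pow_succ] at this
      exact this
    have h2 := AddSubgroup.relIndex_ker A (T : V →+ V)
    have h3 := AddSubgroup.card_mul_index ((AddMonoidHom.ker (T : V →+ V)).addSubgroupOf A)
    have h4 : Nat.card ((AddMonoidHom.ker (T : V →+ V)).addSubgroupOf A) ≤
        Nat.card (AddMonoidHom.ker T) :=
      Nat.card_le_card_of_injective (fun x => ⟨x.1.1, x.2⟩) fun x y h =>
        Subtype.ext (Subtype.ext (Subtype.mk.inj h))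
    rw [← h3, pow_succ']
    exact Nat.mul_le_mul h4 (h2.le.trans ((AddSubgroup.card_le_of_le h1).trans ih))

theorem add_card_le_pow_fixed {V : Type*} [AddCommGroup V] [Finite V] {p : ℕ} (hp : p.Prime)
    (α : AddMonoid.End V) (hα : α ^ p = 1) (e : ℕ) (he : ∀ x : V, p ^ e • x = 0) :
    Nat.card V ≤ Nat.card {v : V // α v = v} ^ (p * e) := by
  obtain ⟨r, hr⟩ := (Commute.one_right (α - 1)).exists_add_pow_prime_eq hp
  rw [sub_add_cancel, hα, one_pow, mul_one] at hr
  have h1 : (α - 1) ^ p = (p : AddMonoid.End V) * (-((α - 1) * r)) := by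
    rw [mul_neg, ← mul_assoc, eq_neg_iff_add_eq_zero]
    rw [add_right_comm] at hr
    exact (left_eq_add.mp (hr.trans (add_comm _ _))).symm.symm
  have h2 : (α - 1) ^ (p * e) = 0 := by
    rw [pow_mul, h1, (Nat.cast_commute p _).mul_pow, ← Nat.cast_pow]
    ext x
    exact he _
  have h3 := card_ker_pow_le (α - 1) (p * e)
  have h4 : AddMonoidHom.ker ((α - 1) ^ (p * e) : AddMonoid.End V) = ⊤ := by
    rw [h2, eq_top_iff]; intro x _; rfl
  rw [h4, AddSubgroup.card_top] at h3
  refine h3.trans (Nat.pow_le_pow_left (le_of_eq (Nat.card_congr (Equiv.subtypeEquivRight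
    fun x => ?_))) _)
  exact sub_eq_zero

theorem comm_card_le_pow_fixed {V : Type*} [CommGroup V] [Finite V] {p : ℕ} (hp : p.Prime)
    (α : V →* V) (hα : ∀ x, α^[p] x = x) (e : ℕ) (he : ∀ x : V, x ^ p ^ e = 1) :
    Nat.card V ≤ Nat.card {v : V // α v = v} ^ (p * e) := by
  let β : AddMonoid.End (Additive V) := MonoidHom.toAdditive α
  have hβ : ∀ (k : ℕ) (x : V), (β ^ k) (Additive.ofMul x) = Additive.ofMul (α^[k] x) := by
    intro k x
    induction k with
    | zero => rfl
    | succ k ih => 
      rw [pow_succ', Function.iterate_succ_apply']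
      exact congrArg β ih
  exact add_card_le_pow_fixed (V := Additive V) hp β
    (AddMonoidHom.ext fun x => by
      have := hβ p x.toMul
      rw [hα] at this
      exact this) e he

theorem card_le_pow_fixed {G : Type*} [Group G] [Finite G] {p : ℕ} (hp : p.Prime)
    (α : G →* G) (hα : ∀ x, α^[p] x = x) (A : Subgroup G) (hA : ∀ x ∈ A, α x ∈ A)
    (hc : ∀ x ∈ A, ∀ y ∈ A, x * y = y * x) (e : ℕ) (he : ∀ x ∈ A, x ^ p ^ e = 1) :
    Nat.card A ≤ Nat.card {v : G // α v = v} ^ (p * e) := by
  letI : CommGroup A := { (inferInstance : Group A) with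
    mul_comm := fun x y => Subtype.ext (hc x x.2 y y.2) }
  let β : A →* A := (α.comp A.subtype).codRestrict A fun x => hA x x.2
  have hβ : ∀ (k : ℕ) (x : A), (β^[k] x : G) = α^[k] x := by
    intro k x
    induction k with
    | zero => rfl
    | succ k ih => rw [Function.iterate_succ_apply', Function.iterate_succ_apply', ← ih]; rfl
  refine (comm_card_le_pow_fixed hp β (fun x => Subtype.ext (by rw [hβ, hα])) e
    fun x => Subtype.ext (he x x.2)).trans (Nat.pow_le_pow_left ?_ _)
  exact Nat.card_le_card_of_injective (fun x => ⟨x.1.1, congrArg Subtype.val x.2⟩) fun x y h =>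
    Subtype.ext (Subtype.ext (Subtype.mk.inj h))

/-- An endomorphism has at most as many fixed points on a quotient as on the group. -/
theorem card_fixed_le_of_surjective {G H : Type*} [Group G] [Finite G] [Group H] (f : G →* H)
    (hf : Function.Surjective f) (α : G →* G) (β : H →* H) (h : ∀ x, β (f x) = f (α x)) :
    Nat.card {v : H // β v = v} ≤ Nat.card {v : G // α v = v} := by
  classical
  haveI := Finite.of_surjective f hf
  let S : Subgroup G := (β.eqLocus (MonoidHom.id H)).comap f
  have h1 : Nat.card S = Nat.card {v : H // β v = v} * Nat.card f.ker := by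
    have := Subgroup.card_mul_index (f.ker.subgroupOf S)
    rw [← this, mul_comm]
    congr 1
    · change f.ker.relIndex S = _
      rw [Subgroup.relIndex_ker, Subgroup.map_comap_eq_self_of_surjective hf]
      rfl
    · exact Nat.card_congr (Subgroup.subgroupOfEquivOfLe (by
        intro x (hx : f x = 1)
        change β (f x) = f x
        rw [hx, map_one])).toEquiv
  let φ : S → f.ker := fun x => ⟨(x : G)⁻¹ * α x, by
    have : β (f x) = f x := x.2
    rw [MonoidHom.mem_ker, map_mul, map_inv, ← h, this, inv_mul_cancel]⟩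
  let ψ : S → {v : G // α v = v} × f.ker := fun x =>
    (⟨x * (Function.invFun φ (φ x) : S)⁻¹, by
      have h2 := congrArg Subtype.val (Function.invFun_eq (f := φ) ⟨x, rfl⟩)
      simp only [φ] at h2
      rw [map_mul, Subgroup.coe_inv, map_inv, mul_inv_eq_iff_eq_mul, mul_assoc, h2,
        mul_inv_cancel_left]⟩, φ x)
  have h2 : Nat.card S ≤ Nat.card {v : G // α v = v} * Nat.card f.ker := by
    rw [← Nat.card_prod]
    haveI : Nonempty S := ⟨1⟩
    refine Nat.card_le_card_of_injective ψ fun x y hxy => ?_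
    have h3 : φ x = φ y := congrArg Prod.snd hxy
    have h4 := congrArg Subtype.val (congrArg Prod.fst hxy)
    simp only [ψ, h3] at h4
    exact Subtype.ext (mul_right_cancel h4)
  rw [h1] at h2
  exact Nat.le_of_mul_le_mul_right h2 Nat.card_pos

theorem iterate_comm_of_comm {G H : Type*} (f : G → H) (α : G → G) (β : H → H)
    (h : ∀ x, β (f x) = f (α x)) (k : ℕ) (x : G) : β^[k] (f x) = f (α^[k] x) := by
  induction k with
  | zero => rfl
  | succ k ih => rw [Function.iterate_succ_apply', Function.iterate_succ_apply', ih, h]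

/-- An abelian invariant section of exponent `p ^ e` has order at most `|C_G(α)| ^ (p e)`. -/
theorem relIndex_le_pow_fixed {G : Type*} [Group G] [Finite G] {p : ℕ} (hp : p.Prime)
    (α : G →* G) (hα : ∀ x, α^[p] x = x) (A B : Subgroup G) [B.Normal] (hA : ∀ x ∈ A, α x ∈ A)
    (hB : ∀ x ∈ B, α x ∈ B) (hc : ∀ x ∈ A, ∀ y ∈ A, (x * y)⁻¹ * (y * x) ∈ B) (e : ℕ)
    (he : ∀ x ∈ A, x ^ p ^ e ∈ B) :
    B.relIndex A ≤ Nat.card {v : G // α v = v} ^ (p * e) := by
  let β : G ⧸ B →* G ⧸ B := QuotientGroup.map B B α hB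
  have hβ : ∀ x, β (QuotientGroup.mk' B x) = QuotientGroup.mk' B (α x) := fun x => rfl
  have h1 := card_le_pow_fixed hp β (fun x => by
    obtain ⟨x, rfl⟩ := QuotientGroup.mk'_surjective B x
    rw [iterate_comm_of_comm _ α β hβ, hα]) (A.map (QuotientGroup.mk' B))
    (by rintro _ ⟨x, hx, rfl⟩; exact ⟨α x, hA x hx, rfl⟩)
    (by
      rintro _ ⟨x, hx, rfl⟩ _ ⟨y, hy, rfl⟩
      rw [← map_mul, ← map_mul]
      exact QuotientGroup.eq.mpr (hc x hx y hy)) e
    (by
      rintro _ ⟨x, hx, rfl⟩
      rw [← map_pow]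
      exact (QuotientGroup.eq_one_iff _).mpr (he x hx))
  rw [← Subgroup.relIndex_ker, QuotientGroup.ker_mk'] at h1
  exact h1.trans (Nat.pow_le_pow_left
    (card_fixed_le_of_surjective _ (QuotientGroup.mk'_surjective B) α β hβ) _)

end Cfsg.Agent.H19
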