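import Cfsg.Agent.H19.Basic
import Cfsg.Agent.S0004
import Cfsg.Agent.S0007
import Cfsg.Prelude.Def_SolvableStructure

/-! Hall complement systems and system normalizers. -/

set_option autoImplicit false

namespace Cfsg.Agent.H19

open Pointwise

variable {G : Type*} [Group G]

theorem IsComplementSystem.eq_top [Finite G] {K : Nat.Primes → Subgroup G}
    (hK : Cfsg.IsComplementSystem K) (p : Nat.Primes) (hp : ¬ (p : ℕ) ∣ Nat.card G) : K p = ⊤ := by
  rw [← Subgroup.index_eq_one, hK p, Nat.factorization_eq_zero_of_not_dvd hp, pow_zero]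

/-- A subgroup has index the full power of `p` iff its index is a power of `p` and its order is
prime to `p`. -/
theorem index_eq_pow_factorization_iff [Finite G] {p : ℕ} (hp : p.Prime) (H : Subgroup G) :
    H.index = p ^ (Nat.card G).factorization p ↔
      (∃ k, H.index = p ^ k) ∧ ¬ p ∣ Nat.card H := by
  have h0 : Nat.card H ≠ 0 := Nat.card_pos.ne'
  have h1 : H.index ≠ 0 := Subgroup.index_ne_zero_of_finite
  have h2 : (Nat.card G).factorization p =
      (Nat.card H).factorization p + H.index.factorization p := by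
    rw [← H.card_mul_index, Nat.factorization_mul h0 h1]; rfl
  constructor
  · intro h
    refine ⟨⟨_, h⟩, fun hd => ?_⟩
    have h3 : H.index.factorization p = (Nat.card G).factorization p := by
      conv_lhs => rw [h]
      rw [hp.factorization_pow, Finsupp.single_eq_same]
    have h4 := hp.factorization_pos_of_dvd h0 hd
    omega
  · rintro ⟨⟨k, hk⟩, hd⟩
    rw [h2, Nat.factorization_eq_zero_of_not_dvd hd, zero_add, hk, hp.factorization_pow,
      Finsupp.single_eq_same]

theorem IsComplementSystem.not_dvd_card [Finite G] {K : Nat.Primes → Subgroup G}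
    (hK : Cfsg.IsComplementSystem K) (p : Nat.Primes) : ¬ (p : ℕ) ∣ Nat.card (K p) :=
  ((index_eq_pow_factorization_iff p.2 (K p)).mp (hK p)).2

theorem IsComplementSystem.smul {K : Nat.Primes → Subgroup G}
    (hK : Cfsg.IsComplementSystem K) (g : G) :
    Cfsg.IsComplementSystem fun p => MulAut.conj g • K p := by
  intro p
  rw [← hK p]
  exact Subgroup.index_map_equiv (K p) (MulAut.conj g)

theorem IsComplementSystem.map [Finite G] {G' : Type*} [Group G'] {K : Nat.Primes → Subgroup G}
    (hK : Cfsg.IsComplementSystem K) (f : G →* G') (hf : Function.Surjective f) :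
    Cfsg.IsComplementSystem fun p => (K p).map f := by
  intro p
  have := Finite.of_surjective f hf
  rw [index_eq_pow_factorization_iff p.2]
  refine ⟨?_, fun h => IsComplementSystem.not_dvd_card hK p
    (h.trans (Subgroup.card_map_dvd _ f))⟩
  have h1 := Subgroup.index_map_dvd (K p) hf
  rw [hK p] at h1
  obtain ⟨k, -, hk⟩ := (Nat.dvd_prime_pow p.2).mp h1
  exact ⟨k, hk⟩

/-- Simultaneous conjugation of complement systems by an element of a normal subgroup. -/
theorem exists_smul_eq_of_forall [Finite G] (N : Subgroup G) [N.Normal]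
    (K L : Nat.Primes → Subgroup G) (hK : Cfsg.IsComplementSystem K)
    (hL : Cfsg.IsComplementSystem L)
    (h : ∀ p, ∃ n ∈ N, MulAut.conj n • K p = L p) :
    ∃ n ∈ N, ∀ p, MulAut.conj n • K p = L p := by
  classical
  have key : ∀ s : Finset Nat.Primes, ∃ D : Subgroup N,
      (∀ q : Nat.Primes, q ∉ s → ¬ (q : ℕ) ∣ D.index) ∧ (∀ p ∈ s, D ≤ (L p).subgroupOf N) ∧
      ∃ n ∈ N, ∀ p ∈ s, MulAut.conj n • K p = L p := by
    intro s
    induction s using Finset.induction_on with
    | empty =>
      refine ⟨⊤, fun q _ => ?_, by simp, 1, N.one_mem, by simp⟩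
      rw [Subgroup.index_top]
      exact q.2.not_dvd_one
    | insert q s hq ih =>
      obtain ⟨D, hD, hDL, g, hg, hgs⟩ := ih
      obtain ⟨m, hm, hmq⟩ := h q
      have h1 : ((L q).subgroupOf N).index ∣ (q : ℕ) ^ (Nat.card G).factorization q :=
        hL q ▸ relIndex_dvd_index_of_normal_right (L q) N
      have hcop : D.index.Coprime ((L q).subgroupOf N).index :=
        Nat.Coprime.coprime_dvd_right h1 (Nat.Coprime.pow_right _
          ((Nat.Prime.coprime_iff_not_dvd q.2).mpr (hD q hq)).symm)
      obtain ⟨h2, h3⟩ := S0007.result D _ hcop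
      obtain ⟨d, hd, l, hl, hdl⟩ := h3 ⟨g * m⁻¹, N.mul_mem hg (N.inv_mem hm)⟩
      have hdl' : g * m⁻¹ = d * l := congrArg Subtype.val hdl
      refine ⟨D ⊓ (L q).subgroupOf N, ?_, ?_, (d : G)⁻¹ * g, N.mul_mem (N.inv_mem d.2) hg, ?_⟩
      · intro r hr hdvd
        rw [Finset.mem_insert, not_or] at hr
        rw [h2] at hdvd
        rcases (Nat.Prime.dvd_mul r.2).mp hdvd with h4 | h4
        · exact hD r hr.2 h4
        · exact hr.1 (Subtype.ext ((Nat.prime_dvd_prime_iff_eq r.2 q.2).mp
            (r.2.dvd_of_dvd_pow (h4.trans h1))))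
      · intro p hp
        rcases Finset.mem_insert.mp hp with rfl | hp
        · exact inf_le_right
        · exact inf_le_left.trans (hDL p hp)
      · intro p hp
        rcases Finset.mem_insert.mp hp with rfl | hp
        · have h5 : (d : G)⁻¹ * g = l * m := by
            rw [← mul_inv_eq_iff_eq_mul, mul_assoc, hdl', inv_mul_cancel_left]
          rw [h5, map_mul, mul_smul, hmq]
          exact conj_smul_eq_iff.mpr (Subgroup.le_normalizer hl)
        · rw [map_mul, mul_smul, hgs p hp]
          exact conj_smul_eq_iff.mpr (Subgroup.le_normalizer ((L p).inv_mem (hDL p hp hd)))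
  obtain ⟨-, -, -, n, hn, hns⟩ := key ((Nat.card G).primeFactors.subtype Nat.Prime)
  refine ⟨n, hn, fun p => ?_⟩
  by_cases hp : (p : ℕ) ∣ Nat.card G
  · exact hns p (Finset.mem_subtype.mpr (Nat.mem_primeFactors.mpr ⟨p.2, hp, Nat.card_pos.ne'⟩))
  · rw [IsComplementSystem.eq_top hK p hp, IsComplementSystem.eq_top hL p hp]
    exact conj_smul_eq_iff.mpr (Subgroup.le_normalizer (Subgroup.mem_top _))

/-- Two subgroups of the same order, Hall in a common solvable overgroup `T`, are conjugate in
`T`. -/
theorem exists_conj_of_hall [Finite G] (T A B : Subgroup G) [Group.IsSolvable T] (hA : A ≤ T)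
    (hB : B ≤ T) (hc : Nat.card A = Nat.card B) (hcop : (Nat.card A).Coprime (A.relIndex T)) :
    ∃ t ∈ T, MulAut.conj t • A = B := by
  have h1 : Nat.card (A.subgroupOf T) = Nat.card A :=
    Nat.card_congr (Subgroup.subgroupOfEquivOfLe hA).toEquiv
  have h2 : Nat.card (B.subgroupOf T) = Nat.card A :=
    (Nat.card_congr (Subgroup.subgroupOfEquivOfLe hB).toEquiv).trans hc.symm
  obtain ⟨t, ht⟩ := S0004.result (G := T) (Nat.card A) (A.relIndex T)
    (by rw [← h1]; exact (Subgroup.card_mul_index _).symm) hcop _ _ h1 h2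
  refine ⟨t, t.2, ?_⟩
  rw [Subgroup.conj_smul_subgroupOf hA] at ht
  have h3 := congrArg (Subgroup.map T.subtype) ht
  rwa [Subgroup.map_subgroupOf_eq_of_le (conj_smul_le_of_mem t.2 hA),
    Subgroup.map_subgroupOf_eq_of_le hB] at h3

theorem IsComplementSystem.coprime [Finite G] {K : Nat.Primes → Subgroup G}
    (hK : Cfsg.IsComplementSystem K) (p : Nat.Primes) : (Nat.card (K p)).Coprime (K p).index := by
  rw [hK p]
  exact Nat.Coprime.pow_right _
    ((Nat.Prime.coprime_iff_not_dvd p.2).mpr (IsComplementSystem.not_dvd_card hK p)).symm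

theorem IsComplementSystem.card_eq [Finite G] {K L : Nat.Primes → Subgroup G}
    (hK : Cfsg.IsComplementSystem K) (hL : Cfsg.IsComplementSystem L) (p : Nat.Primes) :
    Nat.card (K p) = Nat.card (L p) := by
  have h1 := (K p).card_mul_index
  rw [← (L p).card_mul_index, hK p, hL p] at h1
  exact Nat.eq_of_mul_eq_mul_right (pow_pos p.2.pos _) h1

/-- Complement systems with the same image modulo a normal subgroup `N` of a solvable group are
conjugate by an element of `N`. -/
theorem exists_smul_eq_of_sup_eq [Finite G] [Group.IsSolvable G] (N : Subgroup G) [N.Normal]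
    (K L : Nat.Primes → Subgroup G) (hK : Cfsg.IsComplementSystem K)
    (hL : Cfsg.IsComplementSystem L) (h : ∀ p, N ⊔ K p = N ⊔ L p) :
    ∃ n ∈ N, ∀ p, MulAut.conj n • K p = L p := by
  refine exists_smul_eq_of_forall N K L hK hL fun p => ?_
  obtain ⟨t, ht, h1⟩ := exists_conj_of_hall (N ⊔ K p) (K p) (L p) le_sup_right
    (h p ▸ le_sup_right) (IsComplementSystem.card_eq hK hL p)
    (Nat.Coprime.coprime_dvd_right (Subgroup.relIndex_dvd_index_of_le le_sup_right)
      (IsComplementSystem.coprime hK p))
  obtain ⟨n, hn, k, hk, rfl⟩ := mem_sup_normal_left.mp ht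
  refine ⟨n, hn, ?_⟩
  rwa [map_mul, mul_smul, conj_smul_eq_iff.mpr (Subgroup.le_normalizer hk)] at h1

theorem mem_systemNormalizer {K : Nat.Primes → Subgroup G} {g : G} :
    g ∈ Cfsg.systemNormalizer K ↔ ∀ p, MulAut.conj g • K p = K p := by
  simp only [Cfsg.systemNormalizer, Subgroup.mem_iInf, conj_smul_eq_iff]

theorem map_conj_smul {G' : Type*} [Group G'] (f : G →* G') (g : G) (H : Subgroup G) :
    (MulAut.conj g • H).map f = MulAut.conj (f g) • H.map f := by
  ext x
  constructor
  · rintro ⟨y, hy, rfl⟩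
    rw [SetLike.mem_coe, mem_conj_smul_iff] at hy
    rw [mem_conj_smul_iff]
    exact ⟨_, hy, by simp⟩
  · intro hx
    rw [mem_conj_smul_iff] at hx
    obtain ⟨y, hy, hx⟩ := hx
    refine ⟨g * y * g⁻¹, ?_, ?_⟩
    · rw [SetLike.mem_coe, mem_conj_smul_iff]
      simpa [mul_assoc] using hy
    · simp [hx, mul_assoc]

/-- System normalizers pass to quotients. -/
theorem systemNormalizer_map [Finite G] [Group.IsSolvable G] {G' : Type*} [Group G']
    {K : Nat.Primes → Subgroup G} (hK : Cfsg.IsComplementSystem K) (f : G →* G')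
    (hf : Function.Surjective f) :
    Cfsg.systemNormalizer (fun p => (K p).map f) = (Cfsg.systemNormalizer K).map f := by
  apply le_antisymm
  · intro y hy
    obtain ⟨x, rfl⟩ := hf y
    rw [mem_systemNormalizer] at hy
    obtain ⟨n, hn, h⟩ := exists_smul_eq_of_sup_eq f.ker (fun p => MulAut.conj x • K p) K
      (IsComplementSystem.smul hK x) hK (fun p => by
        rw [sup_comm, ← Subgroup.comap_map_eq, map_conj_smul, hy p, Subgroup.comap_map_eq,
          sup_comm])
    refine ⟨n * x, mem_systemNormalizer.mpr fun p => ?_, ?_⟩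
    · rw [map_mul, mul_smul]; exact h p
    · rw [map_mul, MonoidHom.mem_ker.mp hn, one_mul]
  · rintro _ ⟨x, hx, rfl⟩
    rw [SetLike.mem_coe, mem_systemNormalizer] at hx
    rw [mem_systemNormalizer]
    intro p
    rw [← map_conj_smul, hx p]

end Cfsg.Agent.H19
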